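import Mathlib
import Cfsg.Agent.Lib.Glaub.Relative
import Cfsg.Agent.Lib.Char.ExtGroup

/-!
The central extension attached to an invariant character of a normal subgroup, with operators.
-/

set_option autoImplicit false
set_option linter.style.haveILetI false

namespace H88

open Cfsg Module

universe u v

/-- `π : E → G` is a central extension with operators, `τ` an invariant character of `E` whose
restriction to the canonical copy `s L` of `L` is `θ`. -/
structure IsOpExt (A : Type*) {G E : Type*} [Group A] [Group G] [Group E]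
    [MulDistribMulAction A G] [MulDistribMulAction A E] (L : Subgroup G) (θ : L → ℂ)
    (π : E →* G) (τ : E → ℂ) (s : L →* E) : Prop where
  surj : Function.Surjective π
  central : ∀ z, π z = 1 → ∀ y, y * z = z * y
  pow : ∀ z, π z = 1 → z ^ (Nat.card L ^ 2) = 1
  equiv : ∀ (a : A) y, π (a • y) = a • π y
  char : IsCharacter E τ
  inv : Inv A τ
  fixker : ∀ (a : A) z, π z = 1 → a • z = z
  sec : ∀ l, π (s l) = l
  tau_sec : ∀ l, τ (s l) = θ l
  normal : s.range.Normal
  sec_smul : ∀ (a : A), ∀ x ∈ s.range, a • x ∈ s.range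

section construction

variable {A : Type v} {G : Type u} [Group A] [Group G] [MulDistribMulAction A G]
  {V : Type} [AddCommGroup V] [Module ℂ V] [FiniteDimensional ℂ V]
  (L : Subgroup G) [hL : L.Normal] (hLA : ∀ (a : A), ∀ k ∈ L, a • k ∈ L)
  (Θ : Representation ℂ L V) [Θ.IsIrreducible]

omit hL in
theorem exists_intertwiner [Finite G]
    (hinv : ∀ (a : A) (n : L), Θ.character ⟨a • (n : G), hLA a n n.2⟩ = Θ.character n) (a : A) :
    ∃ P : (Module.End ℂ V)ˣ, ∀ n : L,
      (P : Module.End ℂ V) * Θ n = Θ ⟨a • (n : G), hLA a n n.2⟩ * P := by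
  letI := subAction L hLA
  obtain ⟨e⟩ := H6.equiv_of_character_eq Θ
    (Θ.comp (MulDistribMulAction.toMonoidHom L a)) (by
      rw [H6.character_comp]; ext n; exact (hinv a n).symm)
  exact ⟨(LinearMap.GeneralLinearGroup.generalLinearEquiv ℂ V).symm e.toLinearEquiv,
    fun n => e.toIntertwiningMap.isIntertwining' n⟩

omit hL in
theorem conj_eq_of_comm {P : (Module.End ℂ V)ˣ}
    (hP : ∀ n : L, (P : Module.End ℂ V) * Θ n = Θ n * P) (T : (Module.End ℂ V)ˣ) :
    P * T * P⁻¹ = T := by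
  obtain ⟨c, hc⟩ := H6.schur_scalar Θ (P : Module.End ℂ V) (fun n => hP n)
  rw [mul_inv_eq_iff_eq_mul]
  apply Units.ext
  simp only [Units.val_mul, hc]
  change (c • 1) * _ = _ * (c • 1)
  simp

/-- The action of the operators on the extension group. -/
@[reducible] noncomputable def extAction (P : A → (Module.End ℂ V)ˣ)
    (hP : ∀ (a : A) (n : L),
      (P a : Module.End ℂ V) * Θ n = Θ ⟨a • (n : G), hLA a n n.2⟩ * P a) :
    MulDistribMulAction A (H31.extGroup L Θ) where
  smul a x := ⟨(a • x.1.1, P a * x.1.2 * (P a)⁻¹), fun n => by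
    have h1 := hP a ⟨a⁻¹ • (n : G), hLA _ _ n.2⟩
    simp only [smul_inv_smul, Subtype.coe_eta] at h1
    have h2 : ((P a)⁻¹ : (Module.End ℂ V)ˣ) * Θ n =
        Θ ⟨a⁻¹ • (n : G), hLA _ _ n.2⟩ * ((P a)⁻¹ : (Module.End ℂ V)ˣ) := by
      rw [Units.inv_mul_eq_iff_eq_mul, ← mul_assoc, h1, Units.mul_inv_cancel_right]
    simp only [Units.val_mul]
    rw [mul_assoc, h2, ← mul_assoc, mul_assoc (P a : Module.End ℂ V), x.2.1, ← mul_assoc, hP]
    simp only [mul_assoc]
    congr 2
    ext
    simp [smul_mul', smul_inv'], by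
    have h := x.2.2
    simp only [Units.val_mul, map_mul]
    rw [mul_right_comm, ← map_mul, Units.mul_inv, map_one, one_mul, h]⟩
  one_smul x := Subtype.ext (Prod.ext (one_smul _ _)
    (conj_eq_of_comm L Θ (fun n => by simpa using hP 1 n) _))
  mul_smul a b x := Subtype.ext (Prod.ext (mul_smul _ _ _) (by
    change P (a * b) * x.1.2 * (P (a * b))⁻¹ = P a * (P b * x.1.2 * (P b)⁻¹) * (P a)⁻¹
    have h := conj_eq_of_comm L Θ (P := (P a * P b)⁻¹ * P (a * b)) (fun n => by
      rw [Units.val_mul, mul_assoc, hP, ← mul_assoc, ← mul_assoc]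
      congr 1
      rw [Units.inv_mul_eq_iff_eq_mul, ← mul_assoc, Units.eq_mul_inv_iff_mul_eq, Units.val_mul,
        mul_assoc, hP, ← mul_assoc (P a : Module.End ℂ V), hP, mul_assoc]
      simp only [mul_smul]) x.1.2
    conv_rhs => rw [← h]
    group))
  smul_mul a x y := Subtype.ext (Prod.ext (smul_mul' _ _ _) (by
    change P a * (x.1.2 * y.1.2) * (P a)⁻¹ = P a * x.1.2 * (P a)⁻¹ * (P a * y.1.2 * (P a)⁻¹)
    group))
  smul_one a := Subtype.ext (Prod.ext (smul_one _) (by
    change P a * 1 * (P a)⁻¹ = 1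
    group))

end construction

theorem exists_opExt {A : Type v} {G : Type u} [Group A] [Group G] [Finite G]
    [MulDistribMulAction A G] (L : Subgroup G) [hL : L.Normal]
    (hLA : ∀ (a : A), ∀ k ∈ L, a • k ∈ L) {θ : L → ℂ} (hθ : IsIrrCharacter L θ)
    (hG : ∀ (g : G) (n : L), θ ⟨g * n * g⁻¹, hL.conj_mem (n : G) n.2 g⟩ = θ n)
    (hA : ∀ (a : A) (n : L), θ ⟨a • (n : G), hLA a n n.2⟩ = θ n) :
    ∃ (E : Type u) (_ : Group E) (_ : Finite E) (_ : MulDistribMulAction A E) (π : E →* G)
      (τ : E → ℂ) (s : L →* E), IsOpExt A L θ π τ s := by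
  obtain ⟨d', -, hd1, hd2⟩ := H6.irr_one_dvd_card hθ
  obtain ⟨d, Θ, hΘ, rfl⟩ := hθ
  choose P hP using exists_intertwiner L hLA Θ hA
  letI := extAction L hLA Θ P hP
  have hker : ∀ z : H31.extGroup L Θ, H31.extProj L Θ z = 1 →
      ∃ c : ℂ, H31.extRep L Θ z = c • 1 := fun z hz =>
    ⟨_, H31.extRep_of_mem_ker L Θ ⟨z, H31.ker_le_comap L Θ hz⟩ hz⟩
  have hsm : ∀ (a : A) (x : H31.extGroup L Θ), H31.extRep L Θ (a • x) =
      P a * H31.extRep L Θ x * ((P a)⁻¹ : (Module.End ℂ _)ˣ) := fun a x => rfl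
  refine ⟨H31.extGroup L Θ, inferInstance, H31.finite_extGroup L Θ, inferInstance,
    H31.extProj L Θ, (H31.extRep L Θ).character, H31.extSection L Θ,
    H31.extProj_surjective L Θ hG, fun z hz y => ?_, fun z hz => ?_, fun a y => rfl,
    H6.isCharacter_character _, fun a x => ?_, fun a z hz => ?_, fun l => rfl, fun l => rfl,
    ⟨?_⟩, ?_⟩
  · exact Subgroup.mem_center_iff.1 (H31.ker_le_center L Θ hz) y
  · obtain ⟨c, hc⟩ := hker z hz
    have h2 : LinearMap.det (H31.extRep L Θ z) ^ Nat.card L = 1 := z.2.2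
    rw [hc, LinearMap.det_smul, map_one, mul_one, ← pow_mul] at h2
    have h3 : finrank ℂ (Fin d → ℂ) = d' := by
      have := hd1
      rw [Representation.char_one] at this
      exact_mod_cast this
    obtain ⟨m, hm⟩ := hd2
    apply H31.ext_eq
    · rw [map_pow, hz, one_pow, map_one]
    · rw [map_pow, hc, smul_pow, one_pow, map_one]
      have : Nat.card L ^ 2 = finrank ℂ (Fin d → ℂ) * Nat.card L * m := by
        rw [h3, sq]; nth_rewrite 1 [hm]; ring
      rw [this, pow_mul, h2, one_pow, one_smul]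
  · change LinearMap.trace ℂ _ (H31.extRep L Θ (a • x)) = LinearMap.trace ℂ _ (H31.extRep L Θ x)
    rw [hsm, LinearMap.trace_mul_comm, ← mul_assoc, Units.inv_mul, one_mul]
  · obtain ⟨c, hc⟩ := hker z hz
    apply H31.ext_eq
    · change a • H31.extProj L Θ z = _
      rw [hz, smul_one]
    · rw [hsm, hc]; simp
  · rintro _ ⟨l, rfl⟩ y
    refine ⟨MulAut.conjNormal (H31.extProj L Θ y) l, H31.ext_eq _ _ ?_ ?_⟩
    · simp [H31.extProj_extSection]
    · rw [map_mul, map_mul, H31.extRep_extSection, H31.extRep_extSection, H31.extRep_mul,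
        mul_assoc, ← map_mul, mul_inv_cancel, map_one, mul_one]
  · rintro a _ ⟨l, rfl⟩
    refine ⟨⟨a • (l : G), hLA a l l.2⟩, H31.ext_eq _ _ rfl ?_⟩
    rw [hsm, H31.extRep_extSection, H31.extRep_extSection, hP, Units.mul_inv_cancel_right]

/-- An operator that multiplies `y` by a fixed element of coprime order fixes `y`. -/
theorem smul_eq_of_fixed_mul {A X : Type*} [Group A] [Group X] [MulDistribMulAction A X] {a : A}
    {y z : X} {n : ℕ} (hn : n.Coprime (orderOf a)) (hz : z ^ n = 1) (haz : a • z = z)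
    (h : a • y = z * y) : a • y = y := by
  have h1 : ∀ k : ℕ, a ^ k • y = z ^ k * y := by
    intro k
    induction k with
    | zero => simp
    | succ k ih =>
      rw [pow_succ', mul_smul, ih, smul_mul', smul_pow', haz, h, ← mul_assoc, ← pow_succ]
  have h2 := h1 (orderOf a)
  rw [pow_orderOf_eq_one, one_smul, eq_comm, mul_eq_right] at h2
  have h3 : z = 1 := by
    have := pow_gcd_eq_one.2 ⟨hz, h2⟩
    rwa [hn, pow_one] at this
  rw [h, h3, one_mul]

namespace IsOpExt

variable {A G E : Type*} [Group A] [Group G] [Group E] [MulDistribMulAction A G]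
  [MulDistribMulAction A E] {L : Subgroup G} {θ : L → ℂ} {π : E →* G} {τ : E → ℂ} {s : L →* E}

theorem sec_inj (h : IsOpExt A L θ π τ s) : Function.Injective s := fun x y e =>
  Subtype.ext (by rw [← h.sec, e, h.sec])

theorem exists_ker (h : IsOpExt A L θ π τ s) {y : E} (hy : π y ∈ L) :
    ∃ z, π z = 1 ∧ ∃ l ∈ s.range, y = z * l :=
  ⟨y * (s ⟨π y, hy⟩)⁻¹, by simp [h.sec], s ⟨π y, hy⟩, ⟨_, rfl⟩, by simp⟩

theorem mem_of_range (h : IsOpExt A L θ π τ s) {y : E} (hy : y ∈ s.range) : π y ∈ L := by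
  obtain ⟨l, rfl⟩ := hy
  rw [h.sec]; exact l.2

/-- The isomorphism of the canonical copy with `L`. -/
noncomputable def equivRange (h : IsOpExt A L θ π τ s) : L ≃* s.range :=
  MonoidHom.ofInjective h.sec_inj

theorem tau_range (h : IsOpExt A L θ π τ s) (x : s.range) : τ x = θ (h.equivRange.symm x) := by
  obtain ⟨l, rfl⟩ := h.equivRange.surjective x
  rw [MulEquiv.symm_apply_apply, ← h.tau_sec]
  rfl

theorem irr_range (h : IsOpExt A L θ π τ s) (hθ : IsIrrCharacter L θ) :
    IsIrrCharacter s.range (fun x : s.range => τ x) := by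
  simp only [h.tau_range]
  exact H6.isIrrCharacter_comp_equiv h.equivRange.symm hθ

theorem inner_range (h : IsOpExt A L θ π τ s) [Fintype L] [Fintype s.range] (f : E → ℂ) :
    classInner (fun x : s.range => f x) (fun x : s.range => τ x) =
      classInner (fun l : L => f (s l)) θ := by
  rw [← H6.classInner_comp_equiv h.equivRange.toEquiv]
  congr 1
  funext l
  exact h.tau_sec l

theorem smul_mul_inv_mem (h : IsOpExt A L θ π τ s) [Finite A] [Finite G]
    (hcop : (Nat.card G).Coprime (Nat.card A)) {a : A} {y : E}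
    (hy : a • π y * (π y)⁻¹ ∈ L) : a • y * y⁻¹ ∈ s.range := by
  haveI := h.normal
  letI := quotAction s.range h.sec_smul
  obtain ⟨z, hz, l, hl, e⟩ := h.exists_ker (y := a • y * y⁻¹) (by
    rw [map_mul, map_inv, h.equiv]; exact hy)
  have h1 : a • (y : E ⧸ s.range) = y := by
    refine smul_eq_of_fixed_mul (z := (z : E ⧸ s.range)) (n := Nat.card L ^ 2) ?_ ?_ ?_ ?_
    · exact Nat.Coprime.pow_left _ (Nat.Coprime.coprime_dvd_left (Subgroup.card_subgroup_dvd_card L)
        (Nat.Coprime.coprime_dvd_right (orderOf_dvd_natCard a) hcop))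
    · rw [← QuotientGroup.mk_pow, h.pow z hz, QuotientGroup.mk_one]
    · exact congrArg QuotientGroup.mk (h.fixker a z hz)
    · rw [mul_inv_eq_iff_eq_mul] at e
      rw [quotAction_mk, e, QuotientGroup.mk_mul, QuotientGroup.mk_mul,
        (QuotientGroup.eq_one_iff l).2 hl, mul_one]
  rw [← QuotientGroup.eq_one_iff, QuotientGroup.mk_mul, QuotientGroup.mk_inv, mul_inv_eq_one]
  exact h1

theorem prime_dvd (h : IsOpExt A L θ π τ s) [Finite E] {p : ℕ} (hp : p.Prime)
    (hd : p ∣ Nat.card E) : p ∣ Nat.card G := by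
  haveI := Fact.mk hp
  have h1 : Nat.card E = Nat.card G * Nat.card π.ker := by
    rw [Subgroup.card_eq_card_quotient_mul_card_subgroup π.ker,
      Nat.card_congr (QuotientGroup.quotientKerEquivOfSurjective π h.surj).toEquiv]
  rw [h1] at hd
  rcases (Nat.Prime.dvd_mul hp).1 hd with h2 | h2
  · exact h2
  · obtain ⟨z, hz⟩ := exists_prime_orderOf_dvd_card' p h2
    have h3 : orderOf z ∣ Nat.card L ^ 2 :=
      orderOf_dvd_of_pow_eq_one (Subtype.ext (h.pow z z.2))
    rw [hz] at h3
    exact (hp.dvd_of_dvd_pow h3).trans (Subgroup.card_subgroup_dvd_card L)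

theorem coprime (h : IsOpExt A L θ π τ s) [Finite E] {n : ℕ} (hn : (Nat.card G).Coprime n) :
    (Nat.card E).Coprime n := by
  rw [Nat.coprime_iff_gcd_eq_one, Nat.eq_one_iff_not_exists_prime_dvd]
  intro p hp hd
  have h1 := h.prime_dvd hp (hd.trans (Nat.gcd_dvd_left _ _))
  have h2 := Nat.dvd_gcd h1 (hd.trans (Nat.gcd_dvd_right _ _))
  rw [hn] at h2
  exact hp.one_lt.ne' (Nat.dvd_one.1 h2)

theorem solvable (h : IsOpExt A L θ π τ s) (hG : Group.IsSolvable G) : Group.IsSolvable E := by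
  haveI : Group.IsSolvable π.ker := Group.isSolvable_of_comm fun x y =>
    Subtype.ext (h.central y y.2 x)
  exact Group.isSolvable_of_ker_le_range π.ker.subtype π (by simp)

end IsOpExt

/-- If the operators act trivially modulo `L`, every character over an invariant character of `L`
is invariant. -/
theorem inv_of_over {A : Type v} {G : Type u} [Group A] [Finite A] [Group G] [Finite G]
    [MulDistribMulAction A G] (hcop : (Nat.card G).Coprime (Nat.card A)) (L : Subgroup G)
    [hL : L.Normal] [Fintype L] (hLA : ∀ (a : A), ∀ k ∈ L, a • k ∈ L)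
    (htriv : ∀ (a : A) (g : G), a • g * g⁻¹ ∈ L) {θ : L → ℂ} (hθ : IsIrrCharacter L θ)
    (hG : ∀ (g : G) (n : L), θ ⟨g * n * g⁻¹, hL.conj_mem (n : G) n.2 g⟩ = θ n)
    (hA : ∀ (a : A) (n : L), θ ⟨a • (n : G), hLA a n n.2⟩ = θ n) {χ : G → ℂ}
    (hχ : IsIrrCharacter G χ) (hne : classInner (fun n : L => χ n) θ ≠ 0) : Inv A χ := by
  obtain ⟨E, _, _, _, π, τ, s, h⟩ := exists_opExt L hLA hθ hG hA
  haveI := h.normal
  haveI : Fintype s.range := Fintype.ofFinite _
  obtain ⟨β, hβ, hβ1, hβ2⟩ := H31.gallagher_surj s.range h.char (h.irr_range hθ)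
    (H6.isIrrCharacter_comp_surjective π h.surj hχ) (by
      rw [h.inner_range (fun y => χ (π y))]
      simpa only [h.sec] using hne)
  obtain ⟨β', -, hβ3⟩ := H6.exists_irr_quotient hβ s.range hβ1
  intro a g
  obtain ⟨y, rfl⟩ := h.surj g
  have h1 := congrFun hβ2 (a • y)
  have h2 := congrFun hβ2 y
  simp only [Pi.mul_apply] at h1 h2
  rw [← h.equiv, h1, h2, h.inv, ← hβ3, ← hβ3]
  congr 2
  rw [← mul_inv_eq_one, ← QuotientGroup.mk_inv, ← QuotientGroup.mk_mul, QuotientGroup.eq_one_iff]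
  exact h.smul_mul_inv_mem hcop (htriv a _)

end H88
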