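import Mathlib
import Cfsg.Agent.Lib.Glaub.OddExt
import Cfsg.Agent.Lib.Glaub.Over
import Cfsg.Agent.Lib.Glaub.Baer

/-!
The odd multiplicity correspondence when the abelian section sits over a central subgroup.
-/

set_option autoImplicit false
set_option linter.style.haveILetI false

namespace H88

open Cfsg
open scoped commutatorElement

universe u v w

/-- `R` is the graph of a bijection from `P` onto `Q`. -/
structure BijRel {X Y : Type*} (P : X → Prop) (Q : Y → Prop) (R : X → Y → Prop) : Prop where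
  right : ∀ x, P x → ∃ y, Q y ∧ R x y
  right_unique : ∀ x y y', P x → Q y → Q y' → R x y → R x y' → y = y'
  left : ∀ y, Q y → ∃ x, P x ∧ R x y
  left_unique : ∀ x x' y, P x → P x' → Q y → R x y → R x' y → x = x'

theorem BijRel.transfer {X Y X' Y' : Type*} {P : X → Prop} {Q : Y → Prop} {R : X → Y → Prop}
    {P' : X' → Prop} {Q' : Y' → Prop} {R' : X' → Y' → Prop} (h : BijRel P' Q' R')
    (Φ : X' → X → Prop) (Ψ : Y' → Y → Prop)
    (h1 : ∀ x, P x → ∃ x', P' x' ∧ Φ x' x) (h2 : ∀ x', P' x' → ∃ x, P x ∧ Φ x' x)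
    (h3 : ∀ x' x₁ x₂, Φ x' x₁ → Φ x' x₂ → x₁ = x₂)
    (k1 : ∀ y, Q y → ∃ y', Q' y' ∧ Ψ y' y) (k2 : ∀ y', Q' y' → ∃ y, Q y ∧ Ψ y' y)
    (k3 : ∀ y' y₁ y₂, Ψ y' y₁ → Ψ y' y₂ → y₁ = y₂)
    (hR : ∀ x' x y' y, P' x' → Q' y' → Φ x' x → Ψ y' y → (R x y ↔ R' x' y')) : BijRel P Q R where
  right x hx := by
    obtain ⟨x', hx', e⟩ := h1 x hx
    obtain ⟨y', hy', r⟩ := h.right x' hx'
    obtain ⟨y, hy, f⟩ := k2 y' hy'
    exact ⟨y, hy, (hR _ _ _ _ hx' hy' e f).2 r⟩
  right_unique x y₁ y₂ hx hy₁ hy₂ r₁ r₂ := by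
    obtain ⟨x', hx', e⟩ := h1 x hx
    obtain ⟨y₁', hy₁', f₁⟩ := k1 y₁ hy₁
    obtain ⟨y₂', hy₂', f₂⟩ := k1 y₂ hy₂
    obtain rfl := h.right_unique x' y₁' y₂' hx' hy₁' hy₂' ((hR _ _ _ _ hx' hy₁' e f₁).1 r₁)
      ((hR _ _ _ _ hx' hy₂' e f₂).1 r₂)
    exact k3 _ _ _ f₁ f₂
  left y hy := by
    obtain ⟨y', hy', f⟩ := k1 y hy
    obtain ⟨x', hx', r⟩ := h.left y' hy'
    obtain ⟨x, hx, e⟩ := h2 x' hx'
    exact ⟨x, hx, (hR _ _ _ _ hx' hy' e f).2 r⟩
  left_unique x₁ x₂ y hx₁ hx₂ hy r₁ r₂ := by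
    obtain ⟨y', hy', f⟩ := k1 y hy
    obtain ⟨x₁', hx₁', e₁⟩ := h1 x₁ hx₁
    obtain ⟨x₂', hx₂', e₂⟩ := h1 x₂ hx₂
    obtain rfl := h.left_unique x₁' x₂' y' hx₁' hx₂' hy' ((hR _ _ _ _ hx₁' hy' e₁ f).1 r₁)
      ((hR _ _ _ _ hx₂' hy' e₂ f).1 r₂)
    exact h3 _ _ _ e₁ e₂

theorem BijRel.restrict {X Y : Type*} {P : X → Prop} {Q : Y → Prop} {R : X → Y → Prop}
    (h : BijRel P Q R) (P₁ : X → Prop) (Q₁ : Y → Prop)
    (hR : ∀ x y, P x → Q y → R x y → (P₁ x ↔ Q₁ y)) :
    BijRel (fun x => P x ∧ P₁ x) (fun y => Q y ∧ Q₁ y) R where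
  right x hx := by
    obtain ⟨y, hy, r⟩ := h.right x hx.1
    exact ⟨y, ⟨hy, (hR x y hx.1 hy r).1 hx.2⟩, r⟩
  right_unique x y y' hx hy hy' := h.right_unique x y y' hx.1 hy.1 hy'.1
  left y hy := by
    obtain ⟨x, hx, r⟩ := h.left y hy.1
    exact ⟨x, ⟨hx, (hR x y hx hy.1 r).2 hy.2⟩, r⟩
  left_unique x x' y hx hx' hy := h.left_unique x x' y hx.1 hx'.1 hy.1

/-- An invariant character of the class two group is invariant under every automorphism which
commutes with the operators and fixes their fixed points. -/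
theorem char_comp_eq_of_class_two {K A : Type*} [Group K] [Finite K] [Group A] [Finite A]
    [MulDistribMulAction A K] (hodd : Odd (Nat.card K))
    (hcop : (Nat.card K).Coprime (Nat.card A))
    (hcom : ∀ (a : A) (x y : K), a • ⁅x, y⁆ = ⁅x, y⁆)
    (hfix : ∀ x : K, (∀ a : A, a • x = x) → x ∈ Subgroup.center K) {φ : K → ℂ}
    (hφ : IsIrrCharacter K φ) (hφA : Inv A φ) (α : K →* K) (hα : Function.Surjective α)
    (hαA : ∀ (a : A) x, α (a • x) = a • α x) (hαf : ∀ x, (∀ a : A, a • x = x) → α x = x) (x : K) :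
    φ (α x) = φ x := by
  obtain ⟨σ, -, -, s3, -, s5, s6⟩ := exists_baer_involution hodd hcop hcom hfix
  obtain ⟨d, ρ, hρ, rfl⟩ := hφ
  have hR : ∀ β : K →* K, Function.Surjective β → (∀ x y : K, β ⁅x, y⁆ = ⁅x, y⁆) → ∀ x : K,
      (∀ y : K, ρ ⁅y, β x⁆ = 1) ↔ ∀ y : K, ρ ⁅y, x⁆ = 1 := by
    intro β hβ hβc x
    constructor
    · intro h y
      rw [← hβc, map_commutatorElement, h]
    · intro h y
      obtain ⟨y, rfl⟩ := hβ y
      rw [← map_commutatorElement, hβc, h]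
  have hαc : ∀ x y : K, α ⁅x, y⁆ = ⁅x, y⁆ := fun x y => hαf _ fun a => hcom a x y
  have h0 : ∀ x : K, ¬ (∀ y : K, ρ ⁅y, x⁆ = 1) → ρ.character x = 0 := by
    intro x hx
    obtain ⟨y, hy⟩ := not_forall.1 hx
    obtain ⟨c, hc⟩ := H6.schur_scalar ρ (ρ ⁅y, x⁆) (fun g => by
      change ρ _ * ρ g = ρ g * ρ _
      rw [← map_mul, ← map_mul, Subgroup.mem_center_iff.1 (hfix _ fun a => hcom a y x) g])
    have h1 : ρ.character x = c * ρ.character x := by
      conv_lhs => rw [← ρ.char_conj x y]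
      rw [show y * x * y⁻¹ = ⁅y, x⁆ * x by simp [commutatorElement_def]]
      simp only [Representation.character, map_mul, hc]
      change LinearMap.trace ℂ _ ((c • 1) * ρ x) = _
      simp
    have hc1 : c ≠ 1 := by
      rintro rfl
      exact hy (by rw [hc, one_smul]; rfl)
    by_contra h2
    exact hc1 (mul_right_cancel₀ h2 (h1.symm.trans (one_mul _).symm))
  have hcomm : ∀ x : K, (∀ y : K, ρ ⁅y, x⁆ = 1) → ∀ y, Commute (ρ x) (ρ y) := by
    intro x hx y
    change ρ x * ρ y = ρ y * ρ x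
    rw [← map_mul, ← map_mul, show y * x = ⁅y, x⁆ * (x * y) by simp [commutatorElement_def],
      map_mul ρ ⁅y, x⁆, hx, one_mul]
  have h1 : ∀ x : K, (∀ y : K, ρ ⁅y, x⁆ = 1) → ρ (σ x * x) = ρ (x ^ 2) := by
    intro x hx
    rw [sq, map_mul, map_mul, s6 _ ρ x (fun a => ?_) (hcomm x hx)]
    have hax := (hR (MulDistribMulAction.toMonoidHom K a) (MulAction.surjective a)
      (hcom a) x).2 hx
    obtain ⟨c, hc⟩ := H6.schur_scalar ρ (ρ x) (fun g => (hcomm x hx g).eq)
    obtain ⟨c', hc'⟩ := H6.schur_scalar ρ (ρ (a • x)) (fun g => (hcomm _ hax g).eq)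
    have h2 := hφA a x
    simp only [Representation.character, hc, hc', map_smul, LinearMap.trace_id, smul_eq_mul] at h2
    rw [hc, hc', mul_right_cancel₀ (by
      exact_mod_cast (H6.finrank_pos_of_isIrreducible ρ).ne') h2]
  by_cases hx : ∀ y : K, ρ ⁅y, x⁆ = 1
  · have h2 := h1 _ ((hR α hα hαc x).2 hx)
    rw [← s5 α hαA, ← map_mul, hαf _ (fun a => s3 a x), h1 x hx] at h2
    obtain ⟨m, hm⟩ := hodd
    have hh : ∀ x : K, (x ^ 2) ^ (m + 1) = x := fun x => by
      rw [← pow_mul, show 2 * (m + 1) = Nat.card K + 1 by omega, pow_succ, pow_card_eq_one',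
        one_mul]
    have h3 : ρ (α x) = ρ x := by
      rw [← hh (α x), map_pow, ← h2, ← map_pow, hh]
    simp only [Representation.character, h3]
  · rw [h0 x hx, h0 _ (fun h => hx ((hR α hα hαc x).1 h))]

/-- The core of the odd multiplicity correspondence. -/
theorem odd_core {A : Type v} {X : Type u} {Y : Type w} [Group A] [Finite A] [Group X] [Fintype X]
    [Group Y] [Fintype Y] [MulDistribMulAction A X] (hodd : Odd (Nat.card X))
    (hcop : (Nat.card X).Coprime (Nat.card A)) (hsolv : Group.IsSolvable X)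
    (K : Subgroup X) [hK : K.Normal] (hKA : ∀ (a : A), ∀ k ∈ K, a • k ∈ K)
    (hcom : ∀ (a : A), ∀ x ∈ K, ∀ y ∈ K, a • ⁅x, y⁆ = ⁅x, y⁆)
    (hfix : ∀ x ∈ K, (∀ a : A, a • x = x) → x ∈ Subgroup.center X)
    (hsup : ∀ g : X, ∃ k ∈ K, ∃ c, (∀ a : A, a • c = c) ∧ g = k * c)
    (ι : Y →* X) (hι : Function.Injective ι) (hιf : ∀ g, (∃ y, ι y = g) ↔ ∀ a : A, a • g = g) :
    BijRel (fun β : IrrCharacter X => Inv A β.1) (fun _ : IrrCharacter Y => True)
      (fun β γ => ¬ 2 ∣ mult (fun y => β.1 (ι y)) γ.1) := by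
  classical
  letI := subAction K hKA
  haveI : Fintype K := Fintype.ofFinite _
  have hoddK : Odd (Nat.card K) := hodd.of_dvd_nat (Subgroup.card_subgroup_dvd_card K)
  have hcopK : (Nat.card K).Coprime (Nat.card A) :=
    Nat.Coprime.coprime_dvd_left (Subgroup.card_subgroup_dvd_card K) hcop
  have hcomK : ∀ (a : A) (x y : K), a • ⁅x, y⁆ = ⁅x, y⁆ := fun a x y =>
    Subtype.ext (hcom a x x.2 y y.2)
  have hfixK : ∀ x : K, (∀ a : A, a • x = x) → x ∈ Subgroup.center K := fun x hx =>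
    Subgroup.mem_center_iff.2 fun y => Subtype.ext
      (Subgroup.mem_center_iff.1 (hfix x x.2 fun a => congrArg Subtype.val (hx a)) y)
  have hconjA : ∀ c : X, (∀ a : A, a • c = c) → ∀ (a : A) (x : K),
      (MulAut.conjNormal c : MulAut K).toMonoidHom (a • x) =
        a • (MulAut.conjNormal c : MulAut K).toMonoidHom x := fun c hc a x => Subtype.ext (by
    change c * a • (x : X) * c⁻¹ = a • (c * x * c⁻¹)
    rw [smul_mul', smul_mul', smul_inv', hc])
  obtain ⟨σ, s1, s2, s3, s4, s5, -⟩ := exists_baer_involution hoddK hcopK hcomK hfixK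
  choose k hk c hc hkc using hsup
  let f : X → X := fun g => (σ ⟨k g, hk g⟩ : X) * c g
  have hf : ∀ (x : K) (d : X), (∀ a : A, a • d = d) → f (x * d) = σ x * d := by
    intro x d hd
    have e := hkc (x * d)
    have h1 : (x⁻¹ * ⟨k (x * d), hk _⟩ : K) = d * (c (x * d))⁻¹ := by
      change (x : X)⁻¹ * k (x * d) = _
      rw [inv_mul_eq_iff_eq_mul, ← mul_assoc, eq_mul_inv_iff_mul_eq, ← e]
    have h2 := s2 (x⁻¹ * ⟨k (x * d), hk _⟩) fun a => Subtype.ext (by
      change a • ((x⁻¹ * ⟨k (x * d), hk _⟩ : K) : X) = _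
      rw [h1, smul_mul', smul_inv', hd, hc])
    rw [map_mul, map_inv, inv_mul_eq_iff_eq_mul] at h2
    change (σ ⟨k (x * d), hk _⟩ : X) * c (x * d) = _
    rw [h2, Subgroup.coe_mul, h1, mul_assoc, inv_mul_cancel_right]
  have hdec : ∀ g : X, ∃ (x : K) (d : X), (∀ a : A, a • d = d) ∧ g = x * d := fun g =>
    ⟨⟨k g, hk g⟩, c g, hc g, hkc g⟩
  have hff : ∀ g, f (f g) = g := fun g => by
    obtain ⟨x, d, hd, rfl⟩ := hdec g
    rw [hf x d hd, hf _ d hd, s1]
  let S : MulAut X :=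
    { toFun := f, invFun := f, left_inv := hff, right_inv := hff, map_mul' := fun g g' => by
        obtain ⟨x, d, hd, rfl⟩ := hdec g
        obtain ⟨x', d', hd', rfl⟩ := hdec g'
        have h1 : (x : X) * d * (x' * d') =
            (x * (MulAut.conjNormal d : MulAut K).toMonoidHom x' : K) * (d * d') := by
          simp [mul_assoc]
        rw [h1, hf _ _ (fun a => by rw [smul_mul', hd, hd']), hf x d hd, hf x' d' hd', map_mul,
          ← s5 _ (hconjA d hd)]
        simp [mul_assoc] }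
  have hS : ∀ g, S g = f g := fun g => rfl
  have hSS : S ^ 2 = 1 := by
    ext g
    exact hff g
  let B := Subgroup.zpowers S
  have hB : ∀ b : B, b = 1 ∨ (b : MulAut X) = S := by
    rintro ⟨b, n, rfl⟩
    have h2 : S ^ (2 : ℤ) = 1 := by exact_mod_cast hSS
    rcases Int.even_or_odd' n with ⟨m, rfl | rfl⟩
    · left
      exact Subtype.ext (by simp [zpow_mul, h2])
    · right
      simp [zpow_add, zpow_mul, h2]
  have hBs : ∀ (b : B) (g : X), b • g = (b : MulAut X) g := fun b g => rfl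
  have hBinv : ∀ F : X → ℂ, (∀ g, F (f g) = F g) → Inv B F := fun F hF b g => by
    rcases hB b with rfl | hb
    · rw [one_smul]
    · rw [hBs, hb, hS, hF]
  haveI : Fact (Nat.Prime 2) := ⟨Nat.prime_two⟩
  have hBp : IsPGroup 2 B := fun b => ⟨1, by
    rcases hB b with rfl | hb
    · simp
    · exact Subtype.ext (by rw [pow_one, Subgroup.coe_pow, hb, hSS]; rfl)⟩
  have h2X : ¬ 2 ∣ Nat.card X := fun h => (Nat.not_even_iff_odd.2 hodd) (even_iff_two_dvd.2 h)
  have hgl : GlSetup 2 B ι := by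
    refine ⟨hBp, h2X, hι, fun g => ?_⟩
    rw [hιf]
    constructor
    · intro hg b
      rcases hB b with rfl | hb
      · rw [one_smul]
      · have := hf 1 g hg
        simp only [OneMemClass.coe_one, one_mul, map_one] at this
        rw [hBs, hb, hS, this]
    · intro hg a
      obtain ⟨x, d, hd, rfl⟩ := hdec g
      have h1 : f (x * d) = x * d := hg ⟨S, Subgroup.mem_zpowers S⟩
      rw [hf x d hd, mul_left_inj] at h1
      have h2 := s3 a x
      rw [Subtype.ext h1, ← sq] at h2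
      obtain ⟨m, hm⟩ := hoddK
      have hh : (x ^ 2) ^ (m + 1) = x := by
        rw [← pow_mul, show 2 * (m + 1) = Nat.card K + 1 by omega, pow_succ, pow_card_eq_one',
          one_mul]
      have h3 : a • x = x := by
        conv_lhs => rw [← hh, smul_pow', h2, hh]
      rw [smul_mul', hd]
      exact congrArg (· * d) (congrArg Subtype.val h3)
  have hfA : ∀ (a : A) g, f (a • g) = a • f g := fun a g => by
    obtain ⟨x, d, hd, rfl⟩ := hdec g
    rw [smul_mul', hd, hf x d hd, smul_mul', hd]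
    exact (hf (a • x) d hd).trans (by rw [s4]; rfl)
  have hiff : ∀ β : IrrCharacter X, Inv A β.1 ↔ Inv B β.1 := by
    intro β
    constructor
    · intro hβ
      obtain ⟨φ, hφA, hφ⟩ := exists_inv_under K hKA
        (Nat.Coprime.coprime_dvd_left K.index_dvd_card hcop) (Or.inr inferInstance) β.2 hβ
      have hφ2 := char_comp_eq_of_class_two hoddK hcopK hcomK hfixK φ.2 hφA
      have hfK : ∀ x : K, f x = σ x := fun x => by
        simpa using hf x 1 fun a => smul_one a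
      have hKB : ∀ (b : B), ∀ x ∈ K, b • x ∈ K := fun b x hx => by
        rcases hB b with rfl | hb
        · rwa [one_smul]
        · rw [hBs, hb, hS, hfK ⟨x, hx⟩]
          exact (σ _).2
      obtain ⟨n, hn⟩ := hBp.exists_card_eq
      refine inv_of_over (by
        rw [hn]
        exact Nat.Coprime.pow_right _ ((Nat.Prime.coprime_iff_not_dvd Nat.prime_two).2 h2X).symm)
        K hKB (fun b g => ?_) φ.2 (fun g x => ?_) (fun b x => ?_) β.2 hφ
      · rcases hB b with rfl | hb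
        · simp
        · obtain ⟨x, d, hd, rfl⟩ := hdec g
          rw [hBs, hb, hS, hf x d hd, mul_inv_rev, mul_assoc, mul_inv_cancel_left]
          exact K.mul_mem (σ x).2 (K.inv_mem x.2)
      · obtain ⟨y, d, hd, rfl⟩ := hdec g
        refine Eq.trans ?_ (hφ2 (MulAut.conjNormal d : MulAut K).toMonoidHom
          (MulAut.conjNormal d : MulAut K).surjective (hconjA d hd) (fun z hz =>
          Subtype.ext (by
            change d * z * d⁻¹ = z
            rw [Subgroup.mem_center_iff.1 (hfix z z.2 fun a => congrArg Subtype.val (hz a)) d,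
              mul_inv_cancel_right])) x)
        refine Eq.trans ?_ (H6.irr_isClassFunction φ.2 _ y)
        exact congrArg φ.1 (Subtype.ext (by simp [mul_assoc]))
      · rcases hB b with rfl | hb
        · exact congrArg φ.1 (Subtype.ext (one_smul _ _))
        · rw [← hφ2 σ (fun y => ⟨σ y, s1 y⟩) s4 s2 x]
          exact congrArg φ.1 (Subtype.ext (by rw [← hfK, ← hS, ← hb]; rfl))
    · intro hβ a g
      obtain ⟨γ, hγ⟩ := hgl.exists_corr_right β hβ
      have := hgl.corr_unique_left ⟨_, isIrr_smul β.2 a⟩ β (hBinv _ fun g => by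
        change β.1 (a • f g) = β.1 (a • g)
        rw [← hfA]
        exact hβ ⟨S, Subgroup.mem_zpowers S⟩ _) hβ γ (by
          simpa only [(hιf _).1 ⟨_, rfl⟩ a] using hγ) hγ
      exact congrArg (fun δ : IrrCharacter X => δ.1 g) this
  refine ⟨fun β hβ => ?_, fun β γ γ' hβ _ _ => ?_, fun γ _ => ?_, fun β β' γ hβ hβ' _ => ?_⟩
  · obtain ⟨γ, hγ⟩ := hgl.exists_corr_right β ((hiff β).1 hβ)
    exact ⟨γ, trivial, hγ⟩
  · exact hgl.corr_unique_right β ((hiff β).1 hβ) γ γ'
  · obtain ⟨β, hβ, h⟩ := hgl.exists_corr_left γ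
    exact ⟨β, (hiff β).2 hβ, h⟩
  · exact hgl.corr_unique_left β β' ((hiff β).1 hβ) ((hiff β').1 hβ') γ

end H88
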