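import Mathlib
import Cfsg.Agent.Lib.Glaub.OddCore
import Cfsg.Agent.Lib.Char.More

/-!
The odd multiplicity correspondence over an invariant character of the normal subgroup `L`.
-/

set_option autoImplicit false
set_option linter.style.haveILetI false

namespace H88

open Cfsg
open scoped commutatorElement

universe u v w

theorem exists_fixed_in_coset {A G : Type*} [Group A] [Finite A] [Group G] [Finite G]
    [MulDistribMulAction A G] (T : Subgroup G) (hT : ∀ (a : A), ∀ k ∈ T, a • k ∈ T)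
    (hcop : (Nat.card T).Coprime (Nat.card A)) (hs : Group.IsSolvable T) {k : G}
    (hk : ∀ a : A, a • k * k⁻¹ ∈ T) : ∃ c : G, c * k⁻¹ ∈ T ∧ ∀ a : A, a • c = c := by
  obtain ⟨x, hx⟩ := exists_fixed_of_perm (A := A) (X := T) (Ω := G)
    (fun a x => ⟨⟨a • (x : G), hT a x x.2⟩, fun ω => smul_mul' a (x : G) ω⟩) ⊥
    (fun n hn ω => by rw [Subgroup.mem_bot.1 hn, one_smul]) (by rwa [Subgroup.index_bot])
    (Or.inr inferInstance) k (fun a => ⟨⟨_, hk a⟩⁻¹, by
      change (a • k * k⁻¹)⁻¹ * a • k = k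
      group⟩)
  exact ⟨x * k, by simp, hx⟩

/-- `A` acts coprimely on the solvable group `G` of odd order, `K / L` is an abelian invariant
section and `j : H → G` is an embedding onto the elements fixed modulo `L`, with `G = K H` and
`K ∩ H = L`. -/
structure OddSetup (A : Type*) {G H : Type*} [Group A] [Group G] [Group H]
    [MulDistribMulAction A G] [MulDistribMulAction A H] (K L : Subgroup G) (j : H →* G) : Prop where
  odd : Odd (Nat.card G)
  cop : (Nat.card G).Coprime (Nat.card A)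
  solv : Group.IsSolvable G
  le : L ≤ K
  comm : ∀ x ∈ K, ∀ y ∈ K, ⁅x, y⁆ ∈ L
  invK : ∀ (a : A), ∀ k ∈ K, a • k ∈ K
  invL : ∀ (a : A), ∀ k ∈ L, a • k ∈ L
  inj : Function.Injective j
  equiv : ∀ (a : A) d, j (a • d) = a • j d
  fix : ∀ g, (∃ d, j d = g) ↔ ∀ a : A, a • g * g⁻¹ ∈ L
  sup : ∀ g, ∃ k ∈ K, ∃ d, g = k * j d
  inf : ∀ d, j d ∈ K → j d ∈ L

theorem ker_iff_of_inner {E : Type*} [Group E] [Fintype E] {N U : Subgroup E} [N.Normal]
    [Fintype U] (hNU : N ≤ U) {χ : E → ℂ} (hχ : IsIrrCharacter E χ) {ψ : U → ℂ}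
    (hψ : IsIrrCharacter U ψ) (h : classInner (fun u : U => χ u) ψ ≠ 0) :
    (∀ z ∈ N, χ z = χ 1) ↔ ∀ z : U, (z : E) ∈ N → ψ z = ψ 1 := by
  haveI : Fintype N := Fintype.ofFinite _
  have hc := H6.isCharacter_restrict U (H6.irr_isCharacter hχ)
  constructor
  · intro h1 z hz
    exact H6.irr_apply_eq_of_char_apply_eq hc hψ h (h1 z hz)
  · intro h1
    refine H7.res_eq_const_of_inner_one_ne_zero hχ ?_
    refine H7.inner_comp_ne_zero_of_constituent (Subgroup.inclusion hNU) hc hψ h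
      (H6.irr_isCharacter H6.isIrrCharacter_one) ?_
    have : (fun k : N => ψ (Subgroup.inclusion hNU k)) = ψ 1 • fun _ => (1 : ℂ) := by
      funext k
      rw [h1 _ k.2]
      simp
    rw [this, H6.classInner_smul_left, H6.irr_inner_self H6.isIrrCharacter_one, mul_one]
    exact H6.irr_one_ne_zero hψ

variable {A : Type v} {G : Type u} {H : Type w} [Group A] [Finite A] [Group G] [Fintype G]
  [Group H] [Fintype H] [MulDistribMulAction A G] [MulDistribMulAction A H] {K L : Subgroup G}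
  [hK : K.Normal] [hL : L.Normal] {j : H →* G}

theorem OddSetup.inv_case [Fintype L] (h : OddSetup A K L j) (i : L →* H)
    (hi : ∀ l, j (i l) = l) {θ : L → ℂ} (hθ : IsIrrCharacter L θ)
    (hG : ∀ (g : G) (n : L), θ ⟨g * n * g⁻¹, hL.conj_mem (n : G) n.2 g⟩ = θ n)
    (hA : ∀ (a : A) (n : L), θ ⟨a • (n : G), h.invL a n n.2⟩ = θ n) :
    BijRel (fun χ : IrrCharacter G => Inv A χ.1 ∧ classInner (fun n : L => χ.1 n) θ ≠ 0)
      (fun ψ : IrrCharacter H => Inv A ψ.1 ∧ classInner (fun l : L => ψ.1 (i l)) θ ≠ 0)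
      (fun χ ψ => ¬ 2 ∣ mult (fun d => χ.1 (j d)) ψ.1) := by
  classical
  obtain ⟨E, _, _, _, π, τ, s, x⟩ := exists_opExt L h.invL hθ hG hA
  haveI := x.normal
  haveI : Fintype E := Fintype.ofFinite _
  haveI : Fintype s.range := Fintype.ofFinite _
  letI := quotAction s.range x.sec_smul
  let U : Subgroup E := j.range.comap π
  haveI : Fintype U := Fintype.ofFinite _
  have hLU : s.range ≤ U := by
    rintro _ ⟨l, rfl⟩
    exact ⟨i l, by rw [hi, x.sec]⟩
  let πU : U →* H := (MonoidHom.ofInjective h.inj).symm.toMonoidHom.comp (π.subgroupComap j.range)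
  have hπU : ∀ u : U, j (πU u) = π u := fun u =>
    MonoidHom.apply_ofInjective_symm h.inj ⟨π u, u.2⟩
  have hπUs : Function.Surjective πU := fun d => by
    obtain ⟨y, hy⟩ := x.surj (j d)
    exact ⟨⟨y, d, hy.symm⟩, h.inj (by rw [hπU, hy])⟩
  have hUf : ∀ y : E, y ∈ U ↔ ∀ a : A, a • (y : E ⧸ s.range) = y := fun y => by
    have h1 : ∀ a : A, a • (y : E ⧸ s.range) = y ↔ a • y * y⁻¹ ∈ s.range := fun a => by
      rw [← mul_inv_eq_one]
      exact QuotientGroup.eq_one_iff (a • y * y⁻¹)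
    simp only [h1]
    refine (h.fix (π y)).trans (forall_congr' fun a => ⟨x.smul_mul_inv_mem h.cop, fun h2 => ?_⟩)
    simpa only [map_mul, map_inv, x.equiv] using x.mem_of_range h2
  have hUA : ∀ (a : A), ∀ y ∈ U, a • y ∈ U := by
    rintro a y ⟨d, hd⟩
    exact ⟨a • d, by rw [h.equiv, hd, x.equiv]⟩
  haveI : Fintype (E ⧸ s.range) := Fintype.ofFinite _
  haveI : Fintype (U ⧸ s.range.subgroupOf U) := Fintype.ofFinite _
  let ι : U ⧸ s.range.subgroupOf U →* E ⧸ s.range :=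
    QuotientGroup.map _ _ U.subtype fun y hy => hy
  have hθ0 := x.irr_range hθ
  have hη : IsCharacter U (fun u : U => τ u) := H6.isCharacter_restrict U x.char
  have hηθ : ∀ q : s.range, (fun u : U => τ u) ⟨q, hLU q.2⟩ = (fun q : s.range => τ q) q :=
    fun q => rfl
  have hLfix : ∀ y : E, π y ∈ L → ∀ a : A, a • (y : E ⧸ s.range) = y := fun y hy =>
    (hUf y).1 ⟨i ⟨_, hy⟩, hi _⟩
  haveI := x.solvable h.solv
  have hcardX : Nat.card (E ⧸ s.range) ∣ Nat.card E := s.range.index_dvd_card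
  have core := odd_core (A := A) (X := E ⧸ s.range) (Y := U ⧸ s.range.subgroupOf U)
    (Odd.of_dvd_nat (Nat.coprime_two_right.1 (x.coprime (Nat.coprime_two_right.2 h.odd))) hcardX)
    (Nat.Coprime.coprime_dvd_left hcardX (x.coprime h.cop)) inferInstance
    ((K.comap π).map (QuotientGroup.mk' s.range))
    (hK := Subgroup.Normal.map inferInstance _ (QuotientGroup.mk'_surjective _))
    (by
      rintro a _ ⟨y, hy, rfl⟩
      exact ⟨a • y, by
        change π (a • y) ∈ K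
        rw [x.equiv]; exact h.invK a _ hy, rfl⟩)
    (by
      rintro a _ ⟨y, hy, rfl⟩ _ ⟨y', hy', rfl⟩
      rw [← map_commutatorElement]
      exact hLfix _ (by rw [map_commutatorElement]; exact h.comm _ hy _ hy') a)
    (by
      rintro _ ⟨y, hy, rfl⟩ hf
      obtain ⟨d, hd⟩ := (hUf y).2 hf
      have h1 : π y ∈ L := hd ▸ h.inf d (hd ▸ hy)
      obtain ⟨z, hz, l, hl, rfl⟩ := x.exists_ker h1
      rw [Subgroup.mem_center_iff]
      intro g
      obtain ⟨g, rfl⟩ := QuotientGroup.mk'_surjective s.range g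
      rw [map_mul, QuotientGroup.mk'_apply _ l, (QuotientGroup.eq_one_iff l).2 hl, mul_one,
        ← map_mul, ← map_mul, x.central z hz])
    (by
      intro g
      obtain ⟨y, rfl⟩ := QuotientGroup.mk_surjective g
      obtain ⟨k, hk, d, hd⟩ := h.sup (π y)
      obtain ⟨c, hc⟩ := x.surj (j d)
      refine ⟨((y * c⁻¹ : E) : E ⧸ s.range), ⟨y * c⁻¹, ?_, rfl⟩, c, (hUf c).1 ⟨d, hc.symm⟩,
        by simp⟩
      change π (y * c⁻¹) ∈ K
      rwa [map_mul, map_inv, hd, hc, mul_inv_cancel_right])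
    ι
    (by
      rw [injective_iff_map_eq_one]
      intro q hq
      obtain ⟨y, rfl⟩ := QuotientGroup.mk_surjective q
      exact (QuotientGroup.eq_one_iff _).2 ((QuotientGroup.eq_one_iff (y : E)).1 hq))
    (by
      intro g
      obtain ⟨y, rfl⟩ := QuotientGroup.mk_surjective g
      constructor
      · rintro ⟨q, hq⟩
        obtain ⟨u, rfl⟩ := QuotientGroup.mk_surjective q
        rw [← hq]
        exact (hUf u).1 u.2
      · intro hy
        exact ⟨((⟨y, (hUf y).2 hy⟩ : U) : U ⧸ _), rfl⟩)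
  have hk : ∀ δ : IrrCharacter (E ⧸ s.range), ∀ n ∈ s.range,
      δ.1 (QuotientGroup.mk' s.range n) = δ.1 (QuotientGroup.mk' s.range 1) := by
    intro δ n hn
    rw [map_one, QuotientGroup.mk'_apply, (QuotientGroup.eq_one_iff n).2 hn]
  have hirr : ∀ β : IrrCharacter (E ⧸ s.range), IsIrrCharacter E (fun y => β.1 y * τ y) :=
    fun β => H31.gallagher_isIrr s.range x.char hθ0 (H6.isIrrCharacter_comp_surjective
      (QuotientGroup.mk' _) (QuotientGroup.mk'_surjective _) β.2) (hk β)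
  have hinner : ∀ (β : IrrCharacter (E ⧸ s.range)) (γ : IrrCharacter (U ⧸ s.range.subgroupOf U)),
      classInner (fun u : U => β.1 (u : E) * τ u) (fun u : U => γ.1 u * τ u) =
        classInner (fun y => β.1 (ι y)) γ.1 := fun β γ =>
    cg_inner hLU hθ0 hη hηθ (H6.isClassFunction_comp ι (H6.irr_isClassFunction β.2)) γ
  refine (core.restrict (fun β => ∀ z ∈ π.ker, β.1 (z : E) * τ z = β.1 (1 : E) * τ 1)
    (fun γ => ∀ z : U, (z : E) ∈ π.ker → γ.1 z * τ z = γ.1 (1 : U) * τ (1 : U)) ?_).transfer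
    (fun β χ => ∀ y, χ.1 (π y) = β.1 y * τ y) (fun γ ψ => ∀ u : U, ψ.1 (πU u) = γ.1 u * τ u)
    ?_ ?_ ?_ ?_ ?_ ?_ ?_
  · intro β γ _ _ r
    refine ker_iff_of_inner (N := π.ker) (U := U) (fun z hz => ⟨1, by
      rw [map_one, MonoidHom.mem_ker.1 hz]⟩) (hirr β) (cg_mul_irr hLU hθ0 hη hηθ γ) ?_
    rw [hinner, ← mult_ne_zero_iff (H6.isCharacter_comp ι (H6.irr_isCharacter β.2))
      (H6.irr_isCharacter γ.2)]
    exact fun e => r (e ▸ dvd_zero 2)
  · rintro χ ⟨hχ, hne⟩
    obtain ⟨β, hβ, hβ1, hβ2⟩ := H31.gallagher_surj s.range x.char hθ0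
      (H6.isIrrCharacter_comp_surjective π x.surj χ.2) (by
        rw [x.inner_range (fun y => χ.1 (π y))]
        simpa only [x.sec] using hne)
    obtain ⟨β', hβ', hβ3⟩ := H6.exists_irr_quotient hβ s.range hβ1
    have h1 : ∀ y, χ.1 (π y) = β' y * τ y := fun y => by rw [hβ3]; exact congrFun hβ2 y
    refine ⟨⟨β', hβ'⟩, ⟨fun a q => ?_, fun z hz => ?_⟩, h1⟩
    · obtain ⟨y, rfl⟩ := QuotientGroup.mk_surjective q
      have := H31.gallagher_inj s.range x.char hθ0 (H6.isIrrCharacter_comp_surjective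
        (QuotientGroup.mk' _) (QuotientGroup.mk'_surjective _) (isIrr_smul hβ' a))
        (hk ⟨_, isIrr_smul hβ' a⟩) (H6.isIrrCharacter_comp_surjective
        (QuotientGroup.mk' _) (QuotientGroup.mk'_surjective _) hβ') (hk ⟨_, hβ'⟩) (by
          funext y
          change β' (a • y : E) * τ y = β' y * τ y
          rw [← x.inv a y, ← h1, x.inv, ← h1, x.equiv, hχ])
      exact congrFun this y
    · change β' z * τ z = β' (1 : E) * τ 1
      rw [← h1, ← h1, MonoidHom.mem_ker.1 hz, map_one]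
  · rintro β ⟨hβ, hker⟩
    obtain ⟨χ, hχ, h1⟩ := H31.exists_irr_descend π x.surj (hirr β) hker
    refine ⟨⟨χ, hχ⟩, ⟨fun a g => ?_, ?_⟩, h1⟩
    · obtain ⟨y, rfl⟩ := x.surj g
      change χ _ = χ _
      rw [← x.equiv, h1, h1, x.inv, ← hβ a y]
      rfl
    · have : (fun n : L => χ n) = β.1 1 • θ := by
        funext n
        rw [← x.sec, h1, x.tau_sec, (QuotientGroup.eq_one_iff (N := s.range) (s n)).2
          ⟨n, rfl⟩]
        rfl
      change classInner (fun n : L => χ n) θ ≠ 0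
      rw [this, H6.classInner_smul_left, H6.irr_inner_self hθ, mul_one]
      exact H6.irr_one_ne_zero β.2
  · intro β χ₁ χ₂ e₁ e₂
    apply Subtype.ext
    funext g
    obtain ⟨y, rfl⟩ := x.surj g
    rw [e₁, e₂]
  · rintro ψ ⟨-, hne⟩
    haveI : Fintype (s.range.subgroupOf U) := Fintype.ofFinite _
    obtain ⟨γ, hγ, hγ1, hγ2⟩ := H31.gallagher_surj (s.range.subgroupOf U) hη
      (cg_res_irr (η := fun u : U => τ u) hLU hθ0 hηθ) (H6.isIrrCharacter_comp_surjective πU hπUs ψ.2) (by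
        rw [← H6.classInner_comp_equiv
          (x.equivRange.trans (Subgroup.subgroupOfEquivOfLe hLU).symm).toEquiv]
        convert hne using 2
        · funext l
          exact congrArg ψ.1 (h.inj (by rw [hπU, hi]; exact x.sec l))
        · funext l
          exact x.tau_sec l)
    obtain ⟨γ', hγ', hγ3⟩ := H6.exists_irr_quotient hγ _ hγ1
    have h1 : ∀ u : U, ψ.1 (πU u) = γ' u * τ u := fun u => by rw [hγ3]; exact congrFun hγ2 u
    refine ⟨⟨γ', hγ'⟩, ⟨trivial, fun z hz => ?_⟩, h1⟩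
    change γ' z * τ z = γ' (1 : U) * τ (1 : U)
    rw [← h1, ← h1, map_one, h.inj (a₁ := πU z) (a₂ := 1) (by
      rw [hπU, map_one, MonoidHom.mem_ker.1 hz])]
  · rintro γ ⟨-, hker⟩
    obtain ⟨ψ, hψ, h1⟩ := H31.exists_irr_descend πU hπUs (cg_mul_irr hLU hθ0 hη hηθ γ)
      (fun z hz => hker z (by rw [MonoidHom.mem_ker, ← hπU, hz, map_one]))
    refine ⟨⟨ψ, hψ⟩, ⟨fun a d => ?_, ?_⟩, h1⟩
    · obtain ⟨u, rfl⟩ := hπUs d
      have h2 : a • πU u = πU ⟨a • (u : E), hUA a u u.2⟩ :=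
        h.inj (by rw [h.equiv, hπU, hπU, x.equiv])
      change ψ _ = ψ _
      rw [h2, h1, h1, x.inv]
      refine congrArg (fun q => γ.1 q * τ u) ?_
      rw [← mul_inv_eq_one, ← QuotientGroup.mk_inv, ← QuotientGroup.mk_mul,
        QuotientGroup.eq_one_iff]
      exact x.smul_mul_inv_mem h.cop ((h.fix _).1 u.2 a)
    · have : (fun n : L => ψ (i n)) = γ.1 1 • θ := by
        funext n
        have h2 : i n = πU ⟨s n, hLU ⟨n, rfl⟩⟩ := h.inj (by rw [hπU, hi, x.sec])
        rw [h2, h1, x.tau_sec, (QuotientGroup.eq_one_iff (N := s.range.subgroupOf U)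
          (⟨s n, hLU ⟨n, rfl⟩⟩ : U)).2 ⟨n, rfl⟩]
        rfl
      change classInner (fun n : L => ψ (i n)) θ ≠ 0
      rw [this, H6.classInner_smul_left, H6.irr_inner_self hθ, mul_one]
      exact H6.irr_one_ne_zero γ.2
  · intro γ ψ₁ ψ₂ e₁ e₂
    apply Subtype.ext
    funext d
    obtain ⟨u, rfl⟩ := hπUs d
    rw [e₁, e₂]
  · intro β χ γ ψ _ _ e f
    have : classInner (fun d => χ.1 (j d)) ψ.1 = classInner (fun y => β.1 (ι y)) γ.1 := by
      rw [← hinner, ← H6.classInner_comp_surjective πU hπUs]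
      simp only [hπU, e, f]
    rw [mult, mult, this]

end H88
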