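import Mathlib
import Cfsg.Agent.Lib.Glaub.OddInv

/-!
The odd multiplicity correspondence for an abelian section (Isaacs).
-/

set_option autoImplicit false
set_option linter.style.haveILetI false
set_option maxHeartbeats 400000

namespace H88

open Cfsg
open scoped commutatorElement

universe u v w

/-- The Clifford correspondent of an invariant character is invariant. -/
theorem inv_of_inv_indFun {A X : Type*} [Group A] [Group X] [Fintype X] [MulDistribMulAction A X]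
    (N V : Subgroup X) [N.Normal] [Fintype N] (hNV : N ≤ V)
    (hNA : ∀ (a : A), ∀ k ∈ N, a • k ∈ N) (hVA : ∀ (a : A), ∀ k ∈ V, a • k ∈ V) {φ : N → ℂ}
    (hφ : IsIrrCharacter N φ) (hφA : ∀ (a : A) (n : N), φ ⟨a • (n : X), hNA a n n.2⟩ = φ n)
    (hV : H7.inertia φ ≤ V) (η : V → ℂ) (hη : IsIrrCharacter V η)
    (hne : classInner (fun x : N => η ⟨x, hNV x.2⟩) φ ≠ 0) (hinv : Inv A (indFun V η)) (a : A)
    (t : V) : η ⟨a • (t : X), hVA a t t.2⟩ = η t := by
  letI := subAction V hVA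
  letI := subAction N hNA
  have := H7.clifford_corr_inj hNV hφ hV (isIrr_smul hη a) hη (by
    rw [← classInner_smul_smul a] at hne
    have h1 : (fun g : N => φ (a • g)) = φ := funext (hφA a)
    rw [h1] at hne
    exact hne) hne (by
      funext g
      rw [← hinv a g, indFun_smul_action hVA]
      rfl)
  exact congrFun this t

variable {A : Type v} {G : Type u} {H : Type w} [Group A] [Finite A] [Group G] [Fintype G]
  [Group H] [Fintype H] [MulDistribMulAction A G] [MulDistribMulAction A H] {K L : Subgroup G}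
  [hK : K.Normal] [hL : L.Normal] {j : H →* G}

omit [Finite A] [Fintype G] [Fintype H] hK hL in
theorem OddSetup.bij (h : OddSetup A K L j) : Function.Bijective (j.subgroupComap L) := by
  constructor
  · intro x y e
    exact Subtype.ext (h.inj (congrArg Subtype.val e))
  · rintro ⟨q, hq⟩
    obtain ⟨d, rfl⟩ := (h.fix q).2 fun a => L.mul_mem (h.invL a q hq) (L.inv_mem hq)
    exact ⟨⟨d, hq⟩, rfl⟩

omit [Fintype H] hL in
theorem OddSetup.sub (h : OddSetup A K L j) (T : Subgroup G) (hLT : L ≤ T)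
    (hT : ∀ (a : A), ∀ k ∈ T, a • k ∈ T) (hU : ∀ (a : A), ∀ k ∈ T.comap j, a • k ∈ T.comap j) :
    letI := subAction T hT
    letI := subAction _ hU
    OddSetup A (K.subgroupOf T) (L.subgroupOf T) (j.subgroupComap T) := by
  letI := subAction T hT
  letI := subAction _ hU
  haveI := h.solv
  have hfix : ∀ g : T, (∃ d, j.subgroupComap T d = g) ↔
      ∀ a : A, a • g * g⁻¹ ∈ L.subgroupOf T := fun g => by
    refine Iff.trans ⟨?_, ?_⟩ (h.fix g)
    · rintro ⟨d, rfl⟩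
      exact ⟨d, rfl⟩
    · rintro ⟨d, hd⟩
      exact ⟨⟨d, by change j d ∈ T; rw [hd]; exact g.2⟩, Subtype.ext hd⟩
  refine ⟨h.odd.of_dvd_nat (Subgroup.card_subgroup_dvd_card T),
    Nat.Coprime.coprime_dvd_left (Subgroup.card_subgroup_dvd_card T) h.cop, inferInstance,
    fun x hx => h.le hx, fun x hx y hy => h.comm _ hx _ hy, fun a k hk => h.invK a _ hk,
    fun a k hk => h.invL a _ hk, fun x y e => Subtype.ext (h.inj (congrArg Subtype.val e)),
    fun a d => Subtype.ext (h.equiv a d), hfix, fun g => ?_, fun d hd => h.inf d hd⟩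
  obtain ⟨c, hc1, hc2⟩ := exists_fixed_in_coset (A := A) (K.subgroupOf T)
    (fun a k hk => h.invK a _ hk) (Nat.Coprime.coprime_dvd_left
      ((Subgroup.card_subgroup_dvd_card _).trans (Subgroup.card_subgroup_dvd_card T)) h.cop)
    inferInstance (k := g) (fun a => by
      obtain ⟨k, hk, d, hd⟩ := h.sup g
      change a • (g : G) * (g : G)⁻¹ ∈ K
      rw [hd, smul_mul', mul_inv_rev, ← mul_assoc, mul_assoc (a • k)]
      exact K.mul_mem (K.mul_mem (h.invK a k hk) (h.le ((h.fix _).1 ⟨d, rfl⟩ a))) (K.inv_mem hk))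
  obtain ⟨d, hd⟩ := (hfix c).2 fun a => by rw [hc2, mul_inv_cancel]; exact Subgroup.one_mem _
  exact ⟨(c * g⁻¹)⁻¹, Subgroup.inv_mem _ hc1, d, by rw [hd]; group⟩

theorem OddSetup.clifford_case [Fintype L] [Fintype (L.comap j)] (h : OddSetup A K L j)
    {θ : L → ℂ} (hθ : IsIrrCharacter L θ)
    (hA : ∀ (a : A) (n : L), θ ⟨a • (n : G), h.invL a n n.2⟩ = θ n) :
    BijRel (fun χ : IrrCharacter G => Inv A χ.1 ∧ classInner (fun n : L => χ.1 n) θ ≠ 0)
      (fun ψ : IrrCharacter H => Inv A ψ.1 ∧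
        classInner (fun x : L.comap j => ψ.1 x) (fun x => θ ⟨j x, x.2⟩) ≠ 0)
      (fun χ ψ => ¬ 2 ∣ mult (fun d => χ.1 (j d)) ψ.1) := by
  classical
  let T := H7.inertia θ
  have hLT : L ≤ T := H7.le_inertia (H6.irr_isClassFunction hθ)
  have hTA : ∀ (a : A), ∀ k ∈ T, a • k ∈ T := inertia_inv h.invL hA
  let U : Subgroup H := T.comap j
  have hNU : L.comap j ≤ U := Subgroup.comap_mono hLT
  have hUA : ∀ (a : A), ∀ k ∈ U, a • k ∈ U := fun a k hk => by
    change j (a • k) ∈ T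
    rw [h.equiv]
    exact hTA a _ hk
  have hNA : ∀ (a : A), ∀ k ∈ L.comap j, a • k ∈ L.comap j := fun a k hk => by
    change j (a • k) ∈ L
    rw [h.equiv]
    exact h.invL a _ hk
  letI := subAction T hTA
  letI := subAction U hUA
  haveI : Fintype T := Fintype.ofFinite _
  haveI : Fintype U := Fintype.ofFinite _
  haveI : Fintype (L.subgroupOf T) := Fintype.ofFinite _
  let e : L.comap j ≃* L := MulEquiv.ofBijective _ h.bij
  have he : ∀ l : L, j (e.symm l) = l := fun l =>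
    congrArg (fun z : L => (z : G)) (e.apply_symm_apply l)
  have hθH : IsIrrCharacter (L.comap j) (fun x => θ ⟨j x, x.2⟩) :=
    H6.isIrrCharacter_comp_equiv e hθ
  have hθHA : ∀ (a : A) (n : L.comap j), (fun x : L.comap j => θ ⟨j x, x.2⟩)
      ⟨a • (n : H), hNA a n n.2⟩ = (fun x : L.comap j => θ ⟨j x, x.2⟩) n := fun a n =>
    Eq.trans (congrArg θ (Subtype.ext (h.equiv a n))) (hA a ⟨j n, n.2⟩)
  have hU : H7.inertia (fun x : L.comap j => θ ⟨j x, x.2⟩) ≤ U := by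
    intro x hx
    rw [H7.mem_inertia'] at hx
    refine H7.mem_inertia'.2 fun n => ?_
    obtain ⟨y, rfl⟩ := h.bij.2 n
    refine Eq.trans ?_ (hx y)
    refine congrArg θ (Subtype.ext ?_)
    change j x * j y * (j x)⁻¹ = j (x * y * x⁻¹)
    simp
  let iU : L →* U := (Subgroup.inclusion hNU).comp e.symm.toMonoidHom
  have hoverU : ∀ ξ : U → ℂ, classInner (fun l : L => ξ (iU l)) θ =
      classInner (fun n : L.comap j => ξ ⟨n, hNU n.2⟩) (fun x => θ ⟨j x, x.2⟩) := fun ξ => by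
    rw [← H6.classInner_comp_equiv e.toEquiv]
    congr 1
    funext n
    exact congrArg (fun z => ξ (Subgroup.inclusion hNU z)) (e.symm_apply_apply n)
  have core := (h.sub T hLT hTA hUA).inv_case (iU.comp (H7.subgroupOfHom L T))
    (fun l => Subtype.ext (he _)) (H7.isIrr_subgroupOf hLT hθ) (H31.invariant_subgroupOf le_rfl)
    (fun a n => hA a ⟨(n : T), n.2⟩)
  have hT1 : ∀ η : T → ℂ, classInner (fun n : L.subgroupOf T => η n)
      (fun x : L.subgroupOf T => θ ⟨(x : T), Subgroup.mem_subgroupOf.mp x.2⟩) =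
      classInner (fun x : L => η ⟨x, hLT x.2⟩) θ := fun η => H7.classInner_res_subgroupOf hLT η θ
  have hU1 : ∀ ξ : U → ℂ, classInner (fun l : L.subgroupOf T =>
      ξ (iU.comp (H7.subgroupOfHom L T) l))
      (fun x : L.subgroupOf T => θ ⟨(x : T), Subgroup.mem_subgroupOf.mp x.2⟩) =
      classInner (fun n : L.comap j => ξ ⟨n, hNU n.2⟩) (fun x => θ ⟨j x, x.2⟩) := fun ξ =>
    (H7.classInner_subgroupOf hLT (fun l => ξ (iU l)) θ).trans (hoverU ξ)
  simp only [hT1, hU1] at core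
  refine core.transfer (fun η χ => indFun T η.1 = χ.1) (fun ξ ψ => indFun U ξ.1 = ψ.1)
    ?_ ?_ ?_ ?_ ?_ ?_ ?_
  · rintro χ ⟨hχ, hne⟩
    obtain ⟨η, hη, h1, h2⟩ := H7.clifford_corr_surj hLT hθ le_rfl χ.2 hne
    rw [← h2] at hne
    exact ⟨⟨η, hη⟩, ⟨inv_of_inv_indFun L T hLT h.invL hTA hθ hA le_rfl η hη hne (h1 ▸ hχ), hne⟩, h1⟩
  · rintro η ⟨hη, hne⟩
    refine ⟨⟨_, H7.clifford_corr_isIrr hLT hθ le_rfl η.2 hne⟩, ⟨fun a g => ?_, ?_⟩, rfl⟩
    · change indFun T η.1 _ = indFun T η.1 _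
      rw [indFun_smul_action hTA]
      exact congrArg (fun f => indFun T f g) (funext (hη a))
    · change classInner (fun n : L => indFun T η.1 n) θ ≠ 0
      rwa [H7.clifford_corr_mult hLT hθ le_rfl η.2 hne]
  · intro η χ₁ χ₂ e₁ e₂
    exact Subtype.ext (e₁.symm.trans e₂)
  · rintro ψ ⟨hψ, hne⟩
    obtain ⟨ξ, hξ, h1, h2⟩ := H7.clifford_corr_surj hNU hθH hU ψ.2 hne
    rw [← h2] at hne
    exact ⟨⟨ξ, hξ⟩, ⟨inv_of_inv_indFun _ U hNU hNA hUA hθH hθHA hU ξ hξ hne (h1 ▸ hψ), hne⟩, h1⟩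
  · rintro ξ ⟨hξ, hne⟩
    refine ⟨⟨_, H7.clifford_corr_isIrr hNU hθH hU ξ.2 hne⟩, ⟨fun a g => ?_, ?_⟩, rfl⟩
    · change indFun U ξ.1 _ = indFun U ξ.1 _
      rw [indFun_smul_action hUA]
      exact congrArg (fun f => indFun U f g) (funext (hξ a))
    · change classInner (fun n : L.comap j => indFun U ξ.1 n) _ ≠ 0
      rwa [H7.clifford_corr_mult hNU hθH hU ξ.2 hne]
  · intro ξ ψ₁ ψ₂ e₁ e₂
    exact Subtype.ext (e₁.symm.trans e₂)
  · rintro η χ ξ ψ ⟨-, h1⟩ ⟨-, h2⟩ e₁ e₂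
    have : classInner (fun d => χ.1 (j d)) ψ.1 =
        classInner (fun u => η.1 (j.subgroupComap T u)) ξ.1 := by
      rw [← e₂, H7.classInner_indFun_right U _
        (H6.isClassFunction_comp j (H6.irr_isClassFunction χ.2)), ← e₁]
      exact inner_res_clifford hLT hθ le_rfl η.2 h1 (j.subgroupComap T) iU
        (fun q => Subtype.ext (he q)) ξ.2 (by rwa [hoverU])
    rw [mult, mult, this]

omit [Fintype G] hK in
theorem OddSetup.exists_under [Finite G] [Fintype (L.comap j)] (h : OddSetup A K L j)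
    (ξ : IrrCharacter H) (hξ : Inv A ξ.1) : ∃ θ : L → ℂ, IsIrrCharacter L θ ∧
      (∀ (a : A) (q : L), θ ⟨a • (q : G), h.invL a q q.2⟩ = θ q) ∧
      classInner (fun x : L.comap j => ξ.1 x) (fun x => θ ⟨j x, x.2⟩) ≠ 0 := by
  let e : L.comap j ≃* L := MulEquiv.ofBijective _ h.bij
  have hQA : ∀ (a : A), ∀ k ∈ L.comap j, a • k ∈ L.comap j := fun a k hk => by
    change j (a • k) ∈ L
    rw [h.equiv]
    exact h.invL a _ hk
  haveI := h.solv
  haveI := Group.isSolvable_of_isSolvable_injective h.inj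
  obtain ⟨θ, h1, h2⟩ := exists_inv_under (L.comap j) hQA (Nat.Coprime.coprime_dvd_left
    ((Subgroup.index_dvd_card _).trans (Subgroup.card_dvd_of_injective j h.inj)) h.cop)
    (Or.inr inferInstance) ξ.2 hξ
  refine ⟨fun q => θ.1 (e.symm q), H6.isIrrCharacter_comp_equiv e.symm θ.2, fun a q => ?_, ?_⟩
  · obtain ⟨x, rfl⟩ := e.surjective q
    beta_reduce
    rw [e.symm_apply_apply, ← h1 a x]
    refine congrArg θ.1 (e.symm_apply_eq.2 (Subtype.ext ?_))
    exact (h.equiv a x).symm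
  · convert h2 using 2
    funext x
    exact congrArg θ.1 (e.symm_apply_apply x)

omit hK hL [Finite A] [Fintype G] in
theorem OddSetup.over_of_mult [Fintype L] [Fintype (L.comap j)] (h : OddSetup A K L j)
    (χ : IrrCharacter G) (ξ : IrrCharacter H) (hm : ¬ 2 ∣ mult (fun d => χ.1 (j d)) ξ.1)
    {θ : L → ℂ} (hθ : IsIrrCharacter L θ)
    (hξ : classInner (fun x : L.comap j => ξ.1 x) (fun x => θ ⟨j x, x.2⟩) ≠ 0) :
    classInner (fun q : L => χ.1 q) θ ≠ 0 := by
  let e : L.comap j ≃* L := MulEquiv.ofBijective _ h.bij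
  have hc := H6.isCharacter_comp j (H6.irr_isCharacter χ.2)
  have := H7.inner_comp_ne_zero_of_constituent (L.comap j).subtype hc ξ.2
    ((mult_ne_zero_iff hc (H6.irr_isCharacter ξ.2)).1 fun e => hm (e ▸ dvd_zero 2))
    (H6.irr_isCharacter (H6.isIrrCharacter_comp_equiv e hθ)) hξ
  rw [← H6.classInner_comp_equiv e.toEquiv]
  exact this

/-- The odd multiplicity correspondence. -/
theorem OddSetup.bijRel (h : OddSetup A K L j) :
    BijRel (fun χ : IrrCharacter G => Inv A χ.1) (fun ψ : IrrCharacter H => Inv A ψ.1)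
      (fun χ ψ => ¬ 2 ∣ mult (fun d => χ.1 (j d)) ψ.1) := by
  haveI : Fintype L := Fintype.ofFinite _
  haveI : Fintype (L.comap j) := Fintype.ofFinite _
  haveI := h.solv
  refine ⟨fun χ hχ => ?_, fun χ ξ ζ hχ hξ hζ m1 m2 => ?_, fun ξ hξ => ?_,
    fun χ χ' ξ hχ hχ' hξ m1 m2 => ?_⟩
  · obtain ⟨θ, h1, h2⟩ := exists_inv_under L h.invL
      (Nat.Coprime.coprime_dvd_left L.index_dvd_card h.cop) (Or.inr inferInstance) χ.2 hχ
    obtain ⟨ξ, hξ, r⟩ := (h.clifford_case θ.2 h1).right χ ⟨hχ, h2⟩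
    exact ⟨ξ, hξ.1, r⟩
  · obtain ⟨θ, hθ, h1, h2⟩ := h.exists_under ξ hξ
    obtain ⟨θ', hθ', h1', h2'⟩ := h.exists_under ζ hζ
    have o1 := h.over_of_mult χ _ m1 hθ h2
    have o2 := h.over_of_mult χ _ m2 hθ' h2'
    obtain ⟨k, hk⟩ := H7.mem_conjOrbit.1 (H7.mem_conjOrbit_of_inner_res_ne_zero χ.2 hθ' hθ o2 o1)
    obtain ⟨c, hc1, hc2⟩ := exists_fixed_in_coset (H7.inertia θ') (inertia_inv h.invL h1')
      (Nat.Coprime.coprime_dvd_left (Subgroup.card_subgroup_dvd_card _) h.cop) inferInstance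
      (k := k) (by
        intro a
        rw [← H7.conjChar_eq_iff, ← hk]
        funext n
        rw [← h1 a⁻¹ n, hk, H7.conjChar_apply, H7.conjChar_apply, ← h1' a⁻¹]
        refine congrArg θ' (Subtype.ext ?_)
        simp [smul_mul', smul_inv'])
    rw [← H7.conjChar_eq_iff, ← hk] at hc1
    obtain ⟨d, rfl⟩ := (h.fix c).2 fun a => by rw [hc2, mul_inv_cancel]; exact L.one_mem
    have h3 : classInner (fun x : L.comap j => ζ.1 x) (fun x => θ ⟨j x, x.2⟩) ≠ 0 := by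
      rw [← H7.classInner_res_conjChar d (H6.irr_isClassFunction ζ.2)] at h2'
      convert h2' using 2
      funext x
      rw [← hc1]
      refine congrArg θ' (Subtype.ext ?_)
      change j d * j x * (j d)⁻¹ = j (d * x * d⁻¹)
      simp
    exact (h.clifford_case hθ h1).right_unique χ ξ ζ ⟨hχ, o1⟩ ⟨hξ, h2⟩ ⟨hζ, h3⟩ m1 m2
  · obtain ⟨θ, hθ, h1, h2⟩ := h.exists_under ξ hξ
    obtain ⟨χ, hχ, r⟩ := (h.clifford_case hθ h1).left ξ ⟨hξ, h2⟩
    exact ⟨χ, hχ.1, r⟩
  · obtain ⟨θ, hθ, h1, h2⟩ := h.exists_under ξ hξ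
    exact (h.clifford_case hθ h1).left_unique χ χ' ξ ⟨hχ, h.over_of_mult χ _ m1 hθ h2⟩
      ⟨hχ', h.over_of_mult χ' _ m2 hθ h2⟩ ⟨hξ, h2⟩ m1 m2

end H88
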